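import Cfsg.Agent.H209.EPX.Defs
import Cfsg.Agent.H943.E7V.AdmMain
import Cfsg.Agent.H174.E72.Omega7
import Cfsg.Agent.GpExc.Field
import Cfsg.Agent.H231.UniOm
import Cfsg.Agent.UGT.U2.Rec.Congr
import Cfsg.Agent.S1686

/-!
# S5745: `Ω₇(3)` and `Fi₂₂` are not subgroups of `E₇(2)` (helper768)

`Fi₂₂ ≥ ⟨b, …, i⟩ ≅ PΩ₇(3) ≅ Ω₇(3)` (S1686), and `Ω₇(3)` is not admissible (S5935, helper174).
-/

set_option autoImplicit false

namespace Cfsg.Agent.H768.EPX

open Cfsg Cfsg.Lie Cfsg.Agent.H943.E7V Cfsg.Agent.H209.EPX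

universe u v w

theorem adm_cg {S : Type u} {T : Type v} [Group S] [Group T] (e : S ≃* T) (h : Adm S) : Adm T :=
  h.comap e.symm.toMonoidHom e.symm.injective

theorem not_adm_pomega7' : ¬ Adm (POmega (ZMod 3) (quadFormOdd 3 (ZMod 3))) := by
  intro h
  have hb : Subgroup.center (Omega (ZMod 3) (quadFormOdd 3 (ZMod 3))) = ⊥ :=
    H231.UniZero.center_odd (m := 3) (by norm_num) (F := ZMod 3) (by decide)
  have hinj : Function.Injective (QuotientGroup.mk' (Subgroup.center (Omega (ZMod 3) (quadFormOdd 3 (ZMod 3))))) := by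
    rw [← MonoidHom.ker_eq_bot_iff, QuotientGroup.ker_mk', hb]
  exact H174.E72.not_omega7 (h.comap _ hinj)

/-- **`PΩ₇(3)` is not admissible** -/
theorem not_adm_pomega7 {F : Type u} [Field F] [Fintype F] (hF : Fintype.card F = 3) {T : Type v} [Group T]
    (e : T ≃* POmega F (quadFormOdd 3 F)) : ¬ Adm T := by
  obtain ⟨σ⟩ : Nonempty (F ≃+* ZMod 3) := ⟨FiniteField.ringEquivOfCardEq (by rw [hF, ZMod.card])⟩
  obtain ⟨e2⟩ := UGT.U2.Rec.Congr.nonempty_POmegaOdd σ 3
  exact fun h => not_adm_pomega7' (adm_cg (e.trans e2) h)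

/-- **`Fi₂₂` is not admissible** -/
theorem not_adm_fi22 {T : Type v} [Group T] (h : Spor.IsoFi22 T) : ¬ Adm T := by
  obtain ⟨e⟩ := h
  obtain ⟨e2⟩ := S1686.result
  intro hT
  have h2 := adm_cg e hT
  exact not_adm_pomega7' (adm_cg e2 (h2.comap (Subgroup.subtype _) (Subgroup.subtype_injective _)))

/-- **`E₇(2)` is admissible** -/
theorem adm_e7 {F : Type u} [Field F] [Fintype F] (hF : Fintype.card F = 2) : Adm ↥(chevE7.group F) := by
  obtain ⟨e⟩ : Nonempty (F ≃+* ZMod 2) := by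
    have h1 : Fintype.card F = Fintype.card (ZMod 2) := by rw [hF, ZMod.card]
    exact ⟨FiniteField.ringEquivOfCardEq h1⟩
  have hD : Cfsg.Agent.ChevalleyStructure.Elts.InList chevE7 := by simp
  exact AdmMain.adm.comap (Cfsg.Agent.GpExc.Field.emb hD e.toRingHom)
    (Cfsg.Agent.GpExc.Field.emb_injective hD e.toRingHom)

section

variable {G : Type w} [Group G] {H N : Subgroup G} {T : Type} [Group T] {k : ℕ} {e : N ≃* (Fin k → T)}

/-- `T` is a subgroup of `G` -/
theorem exists_hom' (h : EPS H N e) : ∃ f : T →* G, Function.Injective f := by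
  classical
  refine ⟨N.subtype.comp (e.symm.toMonoidHom.comp (MonoidHom.mulSingle (fun _ : Fin k => T) ⟨0, h.pos⟩)), ?_⟩
  intro a b hab
  have h1 : e.symm (Pi.mulSingle ⟨0, h.pos⟩ a) = e.symm (Pi.mulSingle ⟨0, h.pos⟩ b) := Subtype.ext hab
  have h2 := e.symm.injective h1
  exact Pi.mulSingle_injective (M := fun _ : Fin k => T) _ h2

/-- no `EPS` with `T` not admissible in an admissible group -/
theorem eps_false' (hG : Adm G) (h : EPS H N e) (hT : ¬ Adm T) : False := by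
  obtain ⟨f, hf⟩ := exists_hom' h
  exact hT (hG.comap f hf)

end

section

variable {F : Type u} [Field F] [Fintype F] (hF : Fintype.card F = 2) {H N : Subgroup ↥(chevE7.group F)}
  {T : Type} [Group T] {k : ℕ} {e : N ≃* (Fin k → T)} (h : EPS H N e)

include hF h

/-- **no `Fi₂₂` in `E₇(2)`** -/
theorem e7_fi22 (i : Spor.IsoFi22 T) : False := eps_false' (adm_e7 hF) h (not_adm_fi22 i)

/-- **no `Ω₇(3)` in `E₇(2)`** -/
theorem e7_pomega7 {K : Type v} [Field K] [Fintype K] (hK : Fintype.card K = 3) (i : T ≃* POmega K (quadFormOdd 3 K)) :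
    False := eps_false' (adm_e7 hF) h (not_adm_pomega7 hK i)

end

end Cfsg.Agent.H768.EPX
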