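import Cfsg.Agent.H19.RP.Dick
import Cfsg.Agent.ThreePrime.Main
import Cfsg.Agent.S1163

/-!
# Simple groups which embed in `PSL₂(2 ^ f)` or in a Suzuki group (S5745; helper768)

* `simple_le_L2` : a nonabelian simple group which embeds in `PSL₂(F)`, `F` finite of characteristic 2, is
  `PSL₂(F₀)`, `|F₀| = 2 ^ e`, `e ≥ 2`;
* `simple_le_Sz` : a nonabelian simple group which embeds in `Sz(q)` is a Suzuki group.
-/

set_option autoImplicit false

open Cfsg Matrix

namespace Cfsg.Agent.H768.EPX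

universe u v

theorem alt5 {S : Type v} [Group S] (e : S ≃* alternatingGroup (Fin 5)) :
    ∃ (F₀ : Type) (_ : Field F₀) (_ : Fintype F₀) (a : ℕ), 2 ≤ a ∧ Fintype.card F₀ = 2 ^ a ∧
      Nonempty (S ≃* ProjectiveSpecialLinearGroup (Fin 2) F₀) := by
  have : Fact (Nat.Prime 2) := ⟨Nat.prime_two⟩
  have hc : Nat.card (GaloisField 2 2) = 4 := by rw [GaloisField.card 2 2 (by norm_num)]; norm_num
  have : Finite (GaloisField 2 2) := Nat.finite_of_card_ne_zero (by rw [hc]; norm_num)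
  letI : Fintype (GaloisField 2 2) := Fintype.ofFinite _
  have hc' : Fintype.card (GaloisField 2 2) = 4 := by rw [← Nat.card_eq_fintype_card]; exact hc
  obtain ⟨f⟩ := Cfsg.Agent.S0252.result hc'
  exact ⟨GaloisField 2 2, inferInstance, inferInstance, 2, le_rfl, by rw [hc']; norm_num, ⟨e.trans f.symm⟩⟩

/-- the order of the subfield -/
theorem exists_exp {F : Type u} [Field F] [Fintype F] [CharP F 2] {K : Type} [Field K] [Fintype K] {m : ℕ}
    (h : Fintype.card K ^ m = Fintype.card F) {T : Type v} [Group T]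
    (e : T ≃* ProjectiveSpecialLinearGroup (Fin 2) K) (h60 : 60 ≤ Nat.card T) :
    ∃ a : ℕ, 2 ≤ a ∧ Fintype.card K = 2 ^ a := by
  have : Fact (Nat.Prime 2) := ⟨Nat.prime_two⟩
  have := Cfsg.Agent.H19.RP.charP_of_pow (F := F) 2 h
  obtain ⟨a, -, ha⟩ := FiniteField.card K 2
  refine ⟨a, ?_, ha⟩
  by_contra hcon
  have h1 : (a : ℕ) = 1 := by have := a.pos; omega
  rw [h1] at ha
  have h2 := Cfsg.Agent.H19.RP.card_psl_small (K := K) (by omega)
  rw [← Nat.card_congr e.toEquiv] at h2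
  omega

/-- a nonabelian simple subgroup of `PSL₂(F)`, `F` finite of characteristic 2 -/
theorem simple_sub_L2 {F : Type u} [Field F] [Fintype F] [CharP F 2]
    (H : Subgroup (ProjectiveSpecialLinearGroup (Fin 2) F)) (hs : IsSimpleGroup H) (hc : ¬ IsMulCommutative H) :
    ∃ (F₀ : Type) (_ : Field F₀) (_ : Fintype F₀) (a : ℕ), 2 ≤ a ∧ Fintype.card F₀ = 2 ^ a ∧
      Nonempty (H ≃* ProjectiveSpecialLinearGroup (Fin 2) F₀) := by
  have : Fact (Nat.Prime 2) := ⟨Nat.prime_two⟩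
  have h60 : 60 ≤ Nat.card H := Cfsg.Agent.H894.sixty_le hc
  have hns : ¬ Group.IsSolvable H := by
    intro h
    exact hc ⟨⟨fun a b => IsSimpleGroup.comm_iff_isSolvable.2 h a b⟩⟩
  rcases Cfsg.Agent.S0799.result (q := Fintype.card F) rfl 2 H with ⟨k, -, h | ⟨⟨e⟩⟩⟩ | ⟨P, K, hK, ⟨e⟩⟩ | ⟨⟨e⟩⟩ | ⟨⟨e⟩⟩ |
    ⟨⟨e⟩⟩ | ⟨K, _, _, m, hm, ⟨⟨e⟩⟩ | ⟨⟨e⟩⟩⟩
  · exfalso
    obtain ⟨h1, -⟩ := h
    exact hc ⟨⟨fun a b => h1.isMulCommutative.is_comm.comm a b⟩⟩
  · exfalso
    apply hns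
    have := Cfsg.Agent.ClassicalGeometry.PSL2Solvable.isSolvable_dihedral k
    exact Group.isSolvable_of_isSolvable_injective (f := e.toMonoidHom) e.injective
  · exfalso
    apply hns
    have hsol := Cfsg.Agent.ClassicalGeometry.PSL2Solvable.isSolvable_of_le_normalizer 2 P K hK
    exact Group.isSolvable_of_isSolvable_injective (f := e.toMonoidHom) e.injective
  · exfalso
    rw [Nat.card_congr e.toEquiv, nat_card_alternatingGroup] at h60
    norm_num [Nat.factorial] at h60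
  · exfalso
    rw [Nat.card_congr e.toEquiv, Nat.card_perm, Nat.card_fin] at h60
    norm_num [Nat.factorial] at h60
  · exact alt5 e
  · obtain ⟨a, h1, h2⟩ := exists_exp hm e h60
    exact ⟨K, inferInstance, inferInstance, a, h1, h2, ⟨e⟩⟩
  · have hsp : IsSimpleGroup (ProjGenLinGroup (Fin 2) K) := e.symm.isSimpleGroup
    obtain ⟨f⟩ := Cfsg.Agent.H19.RP.pgl_psl hsp
    obtain ⟨a, h1, h2⟩ := exists_exp hm (e.trans f) h60
    exact ⟨K, inferInstance, inferInstance, a, h1, h2, ⟨e.trans f⟩⟩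

/-- **A nonabelian simple group which embeds in `PSL₂(2 ^ f)` is `PSL₂(2 ^ e)`, `e ≥ 2`.** -/
theorem simple_le_L2 {F : Type u} [Field F] [Fintype F] [CharP F 2] {T : Type v} [Group T] [IsSimpleGroup T]
    (hna : ∃ a b : T, a * b ≠ b * a) (φ : T →* ProjectiveSpecialLinearGroup (Fin 2) F)
    (hφ : Function.Injective φ) :
    ∃ (F₀ : Type) (_ : Field F₀) (_ : Fintype F₀) (e : ℕ), 2 ≤ e ∧ Fintype.card F₀ = 2 ^ e ∧
      Nonempty (T ≃* ProjectiveSpecialLinearGroup (Fin 2) F₀) := by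
  let r : T ≃* φ.range := MonoidHom.ofInjective hφ
  have hs : IsSimpleGroup φ.range := r.symm.isSimpleGroup
  have hc : ¬ IsMulCommutative φ.range := by
    intro h
    obtain ⟨a, b, hab⟩ := hna
    apply hab
    apply r.injective
    rw [map_mul, map_mul]
    exact h.is_comm.comm _ _
  obtain ⟨F₀, i1, i2, e, h1, h2, ⟨f⟩⟩ := simple_sub_L2 φ.range hs hc
  exact ⟨F₀, i1, i2, e, h1, h2, ⟨r.trans f⟩⟩

/-- the same with `|F| = 2 ^ f` instead of the characteristic -/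
theorem simple_le_L2' {F : Type u} [Field F] [Fintype F] {n : ℕ} (hF : Fintype.card F = 2 ^ n) {T : Type v} [Group T]
    [IsSimpleGroup T] (hna : ∃ a b : T, a * b ≠ b * a) (φ : T →* ProjectiveSpecialLinearGroup (Fin 2) F)
    (hφ : Function.Injective φ) :
    ∃ (F₀ : Type) (_ : Field F₀) (_ : Fintype F₀) (e : ℕ), 2 ≤ e ∧ Fintype.card F₀ = 2 ^ e ∧
      Nonempty (T ≃* ProjectiveSpecialLinearGroup (Fin 2) F₀) := by
  have : Fact (Nat.Prime 2) := ⟨Nat.prime_two⟩
  have : CharP F 2 := charP_of_card_eq_prime_pow hF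
  exact simple_le_L2 hna φ hφ

/-- the same for `SL₂(F)` (the center is trivial) -/
theorem simple_le_SL2 {F : Type u} [Field F] [Fintype F] {n : ℕ} (hF : Fintype.card F = 2 ^ n) {T : Type v} [Group T]
    [IsSimpleGroup T] (hna : ∃ a b : T, a * b ≠ b * a) (φ : T →* SpecialLinearGroup (Fin 2) F)
    (hφ : Function.Injective φ) :
    ∃ (F₀ : Type) (_ : Field F₀) (_ : Fintype F₀) (e : ℕ), 2 ≤ e ∧ Fintype.card F₀ = 2 ^ e ∧
      Nonempty (T ≃* ProjectiveSpecialLinearGroup (Fin 2) F₀) := by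
  let ψ : T →* ProjectiveSpecialLinearGroup (Fin 2) F := (QuotientGroup.mk' _).comp φ
  refine simple_le_L2' hF hna ψ ?_
  rw [← MonoidHom.ker_eq_bot_iff]
  rcases ψ.normal_ker.eq_bot_or_eq_top with h | h
  · exact h
  · exfalso
    obtain ⟨a, b, hab⟩ := hna
    apply hab
    apply hφ
    have ha : φ a ∈ Subgroup.center (SpecialLinearGroup (Fin 2) F) := by
      have h1 : a ∈ ψ.ker := by rw [h]; trivial
      exact (QuotientGroup.eq_one_iff _).1 (MonoidHom.mem_ker.1 h1)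
    rw [map_mul, map_mul]
    exact ((Subgroup.mem_center_iff.1 ha) (φ b)).symm

/-- the order of a Suzuki group is prime to 3 -/
theorem not_three_dvd {S : Type u} [Group S] (h : Cfsg.Lie.IsoSuzuki S) : ¬ 3 ∣ Nat.card S := by
  obtain ⟨F, iF, iFin, m, hm, hF, ⟨e⟩⟩ := h
  rw [Nat.card_congr e.toEquiv, (Cfsg.Agent.S1163.result hm hF).1]
  have h1 : 2 ^ (2 * m + 1) % 3 = 2 := by
    have : 2 ^ (2 * m + 1) = 4 ^ m * 2 := by rw [pow_succ, pow_mul]; norm_num
    rw [this, Nat.mul_mod, Nat.pow_mod]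
    norm_num
  obtain ⟨k, hk⟩ : ∃ k, 2 ^ (2 * m + 1) = 3 * k + 2 := ⟨2 ^ (2 * m + 1) / 3, by omega⟩
  rw [hk]
  intro h3
  rcases (Nat.Prime.dvd_mul Nat.prime_three).mp h3 with h4 | h4
  · rcases (Nat.Prime.dvd_mul Nat.prime_three).mp h4 with h5 | h5
    · have := Nat.prime_three.dvd_of_dvd_pow h5
      omega
    · omega
  · have h6 : (3 * k + 2) ^ 2 + 1 = 3 * (3 * k ^ 2 + 4 * k + 1) + 2 := by ring
    rw [h6] at h4
    omega

/-- **A nonabelian simple group which embeds in a Suzuki group is a Suzuki group.** -/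
theorem simple_le_Suz {S : Type u} [Group S] (hS : Cfsg.Lie.IsoSuzuki S) {T : Type v} [Group T] [IsSimpleGroup T]
    (hna : ∃ a b : T, a * b ≠ b * a) (φ : T →* S) (hφ : Function.Injective φ) : Cfsg.Lie.IsoSuzuki T := by
  have h0 : Nat.card S ≠ 0 := fun h0 => not_three_dvd hS (by rw [h0]; exact dvd_zero _)
  have : Finite S := Nat.finite_of_card_ne_zero h0
  have : Finite T := Finite.of_injective φ hφ
  refine Cfsg.Agent.ThreePrime.Main.isoSuzuki hna fun h3 => not_three_dvd hS ?_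
  exact h3.trans (Subgroup.card_dvd_of_injective φ hφ)

/-- **`Sz(q)`** -/
theorem simple_le_Sz {F : Type} [Field F] [Fintype F] {m : ℕ} (hm : 1 ≤ m) (hF : Fintype.card F = 2 ^ (2 * m + 1))
    {T : Type v} [Group T] [IsSimpleGroup T] (hna : ∃ a b : T, a * b ≠ b * a)
    (φ : T →* ↥(Cfsg.Lie.Sz F (2 ^ (m + 1)))) (hφ : Function.Injective φ) : Cfsg.Lie.IsoSuzuki T :=
  simple_le_Suz ⟨F, inferInstance, inferInstance, m, hm, hF, ⟨MulEquiv.refl _⟩⟩ hna φ hφ

end Cfsg.Agent.H768.EPX
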